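import Mathlib
import Cfsg.Agent.Lib.Helper56.TC
import Cfsg.Agent.Lib.Helper19.M11A.D
set_option autoImplicit false
set_option maxRecDepth 1000000

namespace Cfsg.Agent.Lib.Helper19.M11A

open Cfsg.Agent.Lib.Helper56.TC Cfsg.Agent.Lib.Helper56.TC.Tabs

theorem cN_0 : allRange (fun x => forceN T.chkName x) 0 590 = true := by decide +kernel
theorem cN_590 : allRange (fun x => forceN T.chkName x) 590 540 = true := by decide +kernel
theorem cN_1130 : allRange (fun x => forceN T.chkName x) 1130 524 = true := by decide +kernel
theorem cN_1654 : allRange (fun x => forceN T.chkName x) 1654 488 = true := by decide +kernel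
theorem cN_2142 : allRange (fun x => forceN T.chkName x) 2142 231 = true := by decide +kernel
theorem cF_0 : allRange (fun x => forceN T.chkFinName x) 0 720 = true := by decide +kernel

end Cfsg.Agent.Lib.Helper19.M11A
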