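import Mathlib
import Cfsg.Agent.Lib.Helper56.TC
import Cfsg.Agent.Lib.Helper19.M11A.C0
import Cfsg.Agent.Lib.Helper19.PModel
set_option autoImplicit false
set_option maxRecDepth 1000000

namespace Cfsg.Agent.Lib.Helper19.M11A

open Cfsg.Agent.Lib.Helper56.TC Cfsg.Agent.Lib.Helper56.TC.Tabs

theorem uN_590 : Upto T.chkName 590 := upto_add (upto_zero T.chkName) rfl cN_0
theorem uN_1130 : Upto T.chkName 1130 := upto_add uN_590 rfl cN_590
theorem uN_1654 : Upto T.chkName 1654 := upto_add uN_1130 rfl cN_1130
theorem uN_2142 : Upto T.chkName 2142 := upto_add uN_1654 rfl cN_1654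
theorem uN_2373 : Upto T.chkName 2373 := upto_add uN_2142 rfl cN_2142
theorem uF_720 : Upto T.chkFinName 720 := upto_add (upto_zero T.chkFinName) rfl cF_0

/-- The certificate for the upper bound is valid. -/
theorem certU : Cfsg.Agent.Lib.Helper19.PM.CertU T where
  h0 := by decide +kernel
  hrx := by decide +kernel
  hname := uN_2373
  hfin := uF_720

end Cfsg.Agent.Lib.Helper19.M11A
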